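import Cfsg.Agent.H933.O10.Base
import Cfsg.Agent.H878.Sz.MainThree
import Cfsg.Agent.H878.Sz.MainP3

/-!
# `Suz` is not the socle of a residual core in `Ω₁₀(q)` (helper908; the rows are helper878's)
-/

set_option autoImplicit false

namespace Cfsg.Agent.H908.TenSuz

open Cfsg Cfsg.Geo Matrix Cfsg.Agent.H915.LD

universe u

variable {F : Type u} [Field F] [Fintype F] {p : ℕ} {Q : (Fin 10 → F) → F} {H P : Subgroup (GL (Fin 10) F)}

theorem o10_suz (h : H933.O10.Cx p Q H P) (hT : Spor.IsoSuz (Soc P)) : False := by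
  have hF : Fact p.Prime := ⟨h.prime⟩
  have hc := h.char
  obtain ⟨e⟩ := hT
  by_cases hp : p = 3
  · subst hp
    have h1 := (H878.Sz.core_Suz_three h.core e (by rw [Fintype.card_fin]; norm_num)).1
    rw [Fintype.card_fin] at h1
    exact absurd h1 (by norm_num)
  · have h1 := (H878.Sz.core_Suz h.core e (by rw [Fintype.card_fin]; norm_num) p hp).1
    rw [Fintype.card_fin] at h1
    exact absurd h1 (by norm_num)

end Cfsg.Agent.H908.TenSuz
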